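import Cfsg.Agent.H921.SporLarge
import Cfsg.Agent.H921.SporGen
import Cfsg.Agent.H489.DegBase
import Cfsg.Agent.Mrg.Omega.TwoF.RowHN
import Cfsg.Agent.KFacts.HN.Large
import Cfsg.Agent.S2056

/-!
# The Harada–Norton group: degree at least 16
-/

set_option autoImplicit false
set_option maxRecDepth 100000

universe u v

namespace Cfsg.Agent.H921.Spor

/-- Two commuting Heisenberg pairs for the prime 5. -/
theorem Orb.of_heis_five {T : Type v} [Group T] {z : T} {x y : Fin 2 → T} (h : Cfsg.Agent.Omega.Lie.Heis.Heis 5 2 z x y)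
    (hz : z ≠ 1) : Orb 5 25 T := by
  have yx01 := h.yx 0 1 (by decide)
  have yx10 := h.yx 1 0 (by decide)
  have c0 := h.conj 0
  have c1 := h.conj 1
  have zz : ∀ i : Fin 2, y i * z * (y i)⁻¹ = z := fun i => by rw [← h.zy i, mul_inv_cancel_right]
  have yc01 : y 0 * x 1 * (y 0)⁻¹ = x 1 := by rw [yx01, mul_inv_cancel_right]
  have yc10 : y 1 * x 0 * (y 1)⁻¹ = x 0 := by rw [yx10, mul_inv_cancel_right]
  let X : ℕ → T := fun i => if i = 0 then z else if i = 1 then x 0 else if i = 2 then x 1 else 1
  let G : ℕ → T := fun i => if i = 0 then y 0 else y 1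
  have hX0 : X 0 = z := rfl
  have hX1 : X 1 = x 0 := rfl
  have hX2 : X 2 = x 1 := rfl
  have hX : ∀ i, i = 0 ∨ i = 1 ∨ i = 2 ∨ 3 ≤ i := fun i => by omega
  have hX3 : ∀ i, 3 ≤ i → X i = 1 := fun i hi => by
    change (if i = 0 then z else if i = 1 then x 0 else if i = 2 then x 1 else 1) = 1
    rw [if_neg (by omega), if_neg (by omega), if_neg (by omega)]
  refine Orb.of_gen (r := 5) (by norm_num) 3 25 (by norm_num) X G ?_ hX3 ?_ [1, 0, 0] ?_
    [[[1, 0, 0], [1, 1, 0], [0, 0, 1]], [[1, 0, 0], [0, 1, 0], [1, 0, 1]]]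
    (by
      intro b hb
      simp only [List.mem_cons, List.not_mem_nil, or_false] at hb
      rcases hb with rfl | rfl <;> exact ⟨rfl, by decide⟩) ?_
    ((List.range 5).flatMap fun i => (List.range 5).map fun j => List.replicate i 0 ++ List.replicate j 1)
    (by decide) (by decide +kernel)
  · intro i
    rcases hX i with rfl | rfl | rfl | hi
    · exact h.zr
    · exact h.xr 0
    · exact h.xr 1
    · rw [hX3 i hi, one_pow]
  · intro i j
    rcases hX i with rfl | rfl | rfl | hi <;> rcases hX j with rfl | rfl | rfl | hj <;>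
      first
        | rfl
        | (rw [hX3 _ hi, one_mul, mul_one])
        | (rw [hX3 _ hj, one_mul, mul_one])
        | (simp only [hX0, hX1, hX2]
           first
             | exact h.zx 0
             | exact h.zx 1
             | exact (h.zx 0).symm
             | exact (h.zx 1).symm
             | exact h.xx 0 1
             | exact h.xx 1 0)
  · have h1 : pv X 0 [1, 0, 0] = z := by
      change X 0 ^ 1 * (X 1 ^ 0 * (X 2 ^ 0 * 1)) = z
      simp [hX0]
    rw [h1]
    exact hz
  · intro k hk i hi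
    have hk' : k = 0 ∨ k = 1 := by simp at hk; omega
    rcases hX i with rfl | rfl | rfl | hi'
    rotate_left 3
    · omega
    all_goals
      rcases hk' with rfl | rfl
      all_goals
        simp only [List.getD_cons_zero, List.getD_cons_succ, pv, pow_zero, pow_one, mul_one, one_mul]
        first
          | exact zz 0
          | exact zz 1
          | exact yc01
          | exact yc10
          | (change y 0 * x 0 * (y 0)⁻¹ = z * x 0
             rw [c0, h.zx 0])
          | (change y 1 * x 1 * (y 1)⁻¹ = z * x 1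
             rw [c1, h.zx 1])

end Cfsg.Agent.H921.Spor

namespace Cfsg.Agent.H921.Spor.HN

open Cfsg Cfsg.Agent.H912.Bd Cfsg.Agent.H921.Spor Cfsg.Agent.H915.LD Cfsg.Agent.H489.Deg
open Matrix (GeneralLinearGroup)

theorem HN_five (hs : IsSimpleGroup Cfsg.Spor.HN) : Orb 5 25 Cfsg.Spor.HN :=
  Orb.of_heis_five (Cfsg.Agent.Omega.TwoF.RowHN.heis hs) Cfsg.Agent.Omega.TwoF.RowHN.z_ne'

theorem HN_two {F : Type u} [Field F] (h2 : (2 : F) ≠ 0) : Bd F 2 16 Cfsg.Spor.HN :=
  bd_of_large Cfsg.Agent.KFacts.HN.large (k := 4) (by rw [Cfsg.Agent.KFacts.HN.card_RS]; norm_num) h2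

/-- **The Harada–Norton group: degree at least 16.** -/
theorem hn_le {p : ℕ} (hp : p.Prime) {F : Type u} [Field F] [Finite F] [CharP F p] {n : ℕ}
    {P : Subgroup (GL (Fin n) F)} (hC : Core P) (e : Soc P ≃* Cfsg.Spor.HN) : 16 ≤ n := by
  have hs : IsSimpleGroup Cfsg.Spor.HN := (MulEquiv.isSimpleGroup_congr e).1 hC.simple
  by_cases h5 : p = 5
  · exact le_of_bd hC e Cfsg.Agent.S2056.result (r := 2) (by norm_num)
      (HN_two (F := F) (by exact_mod_cast cast_ne (F := F) hp Nat.prime_two (by omega)))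
  · have h := le_of_bd hC e Cfsg.Agent.S2056.result (r := 5) (by norm_num)
      ((HN_five hs).bd (F := F) (by norm_num) (cast_ne (F := F) hp (by norm_num) h5))
    omega

end Cfsg.Agent.H921.Spor.HN
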